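import Cfsg.Agent.H94.G2.DataDefs

set_option autoImplicit false
set_option linter.all false

namespace Cfsg.Agent.H94.G2

open Cfsg.Agent.H94.HS Cfsg.Agent.H35 Cfsg.Spor

theorem xinv_ok : (List.range 48).all (fun j => decide (mulP (decPM (xcodes.getD j oneCodeP))
    (decPM (xcodes.getD j oneCodeP)) = oneP)) = true := by decide +kernel

theorem base1_ok : (List.range 48).all (fun j => decide (matAtP slp1Codes j =
    decPM (xcodes.getD j oneCodeP))) = true := by decide +kernel

theorem slp1_ok : slpChkP slp1Codes 48 slp1Ins = true := by decide +kernel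

theorem ins1_len : slp1Ins.length = 15 := by decide +kernel

theorem gpos1_lt : gpos1.all (fun k => Nat.blt k 63) = true := by decide +kernel

theorem base2_ok : (List.range 6).all (fun j => decide (matAtP slp2Codes j =
    matAtP slp1Codes (gpos1.getD j 0))) = true := by decide +kernel

theorem rpos2_ok : (List.range 36).all (fun j => Nat.blt (rpos2.getD j 0) 527 &&
    decide (matAtP slp2Codes (rpos2.getD j 0) =
      decPM (xcodes.getD (Nat.add (Nat.mul 4 (Nat.div j 3)) (Nat.succ (Nat.mod j 3))) oneCodeP))) = true := by
  decide +kernel

theorem u_ok : (decide (mulP (decPM uCode) (decPM uiCode) = oneP) &&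
    decide (mulP (decPM uiCode) (decPM uCode) = oneP)) = true := by decide +kernel

theorem ucol_ok : (List.range 14).all (fun k => decide (colP (decPM uCode) k =
    cvcS (bptsS.getD k 0)) && Nat.blt (bptsS.getD k 0) 1782) = true := by decide +kernel

theorem w_ok : (List.range 14).all (fun k => decide (crd (mvP (decPM uiCode) (cvcS wptS)) k ≠ F4.z))
    = true := by decide +kernel

theorem wpt_lt : wptS < t1680_pd.N := by decide

end Cfsg.Agent.H94.G2
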