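import Cfsg.Agent.H94.G2.DataDefs

set_option autoImplicit false
set_option linter.all false

namespace Cfsg.Agent.H94.G2

open Cfsg.Agent.H94.HS Cfsg.Agent.H35 Cfsg.Spor

theorem maskS_ok0 : maskChk maskS0 [] = true := by decide +kernel

theorem sortS_ok0 : sortChk vS0 4095 permS0 = true := by decide +kernel

theorem permS_len0 : permS0.length = 4095 := by decide +kernel

theorem baseS0 : vecAt vS0 0 = (0, 8192) := by decide +kernel

theorem maskS_ok1 : maskChk maskS1 [(0, 8192)] = true := by decide +kernel

theorem sortS_ok1 : sortChk vS1 1024 permS1 = true := by decide +kernel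

theorem permS_len1 : permS1.length = 1024 := by decide +kernel

theorem baseS1 : vecAt vS1 0 = (0, 4) := by decide +kernel

theorem treeS_ok1_0 : treeChk maskS1 vS1 1 treeS1_0 = true := by decide +kernel

theorem treeS_len1_0 : treeS1_0.length = 700 := by decide +kernel

theorem treeS_ok1_1 : treeChk maskS1 vS1 701 treeS1_1 = true := by decide +kernel

theorem treeS_len1_1 : treeS1_1.length = 323 := by decide +kernel

theorem maskS_ok2 : maskChk maskS2 [(0, 8192), (0, 4)] = true := by decide +kernel

theorem sortS_ok2 : sortChk vS2 15 permS2 = true := by decide +kernel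

theorem permS_len2 : permS2.length = 15 := by decide +kernel

theorem baseS2 : vecAt vS2 0 = (0, 512) := by decide +kernel

theorem treeS_ok2_0 : treeChk maskS2 vS2 1 treeS2_0 = true := by decide +kernel

theorem treeS_len2_0 : treeS2_0.length = 14 := by decide +kernel

theorem maskS_ok3 : maskChk maskS3 [(0, 8192), (0, 4), (0, 512)] = true := by decide +kernel

theorem sortS_ok3 : sortChk vS3 4 permS3 = true := by decide +kernel

theorem permS_len3 : permS3.length = 4 := by decide +kernel

theorem baseS3 : vecAt vS3 0 = (0, 64) := by decide +kernel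

theorem treeS_ok3_0 : treeChk maskS3 vS3 1 treeS3_0 = true := by decide +kernel

theorem treeS_len3_0 : treeS3_0.length = 3 := by decide +kernel

end Cfsg.Agent.H94.G2
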