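import Cfsg.Agent.H94.G2.PM
import Cfsg.Agent.H94.HS.Graph
import Cfsg.Prelude.Def_ChevG2

/-!
# Checkers for packed matrix certificates, and the root elements of `G₂(4)` (helper94)
-/

set_option autoImplicit false

namespace Cfsg.Agent.H94.G2

open Cfsg.Agent.H94.HS

/-- decode a packed vector from a 28-bit code -/
def decPV (c : ℕ) : PV := (Nat.land c 16383, Nat.land (Nat.shiftRight c 14) 16383)

/-- decode a packed matrix from a code -/
def decPM (c : ℕ) : PM :=
  ([0, 1, 2, 3, 4, 5, 6, 7, 8, 9, 10, 11, 12, 13] : List ℕ).map (fun k => decPV (Nat.shiftRight c (Nat.mul 28 k)))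

/-- the code of the identity matrix -/
def oneCodeP : ℕ := 0x80000004000000200000010000000800000040000002000000100000008000000400000020000001000000080000004000

/-- the identity matrix -/
def oneP : PM := decPM oneCodeP

/-- entry of a packed matrix -/
def entP (M : PM) (i j : I14) : F4 := crd (colP M (num j)) (num i)

/-- entry of the identity matrix -/
def oneEnt (i j : I14) : F4 := (1 : Matrix I14 I14 F4) i j

theorem toMatP_one : toMatP oneP = 1 := by
  have h : ∀ i j : I14, entP oneP i j = oneEnt i j := by decide +kernel
  ext i j
  exact h i j

/-- the codes of the root elements `x_r(t)`: entry `4 r + t`, with `t` coded `0, 1, ω, ω²` -/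
def xcodes : List ℕ := [0x80000004000000200000010000000800000040000002000000100000008000000400000020000001000000080000004000, 0x80140004200000208000010400000800000042000002000000100000008000000400000020000001000000180000004000, 0x80100054000080200002010000100800000040000802000000100000008000000400000020000001000000080040004000, 0x80040054200080208002010400100800000042000802000000100000008000000400000020000001000000180040004000, 0x80000004000000200000010000000800000040000002000000100000008000000400000020000001000000080000004000, 0x8400000402c000210000010000000840000040000002100000100000008000000400000020000001000000280000024000, 0x8000100402000b200004010000000800010040000002000040100000008000000400000020000001000000080080004008, 0x8400100400c00b210004010000000840010040000002100040100000008000000400000020000001000000280080024008, 0x80000004000000200000010000000800000040000002000000100000008000000400000020000001000000080000004000, 0x91200004890000204800010200000810000040000002000000120000009000000400000020000001000000080000044000, 0x81204404090220204001210200080810004040000002000000100008008000400400000020000001000000080000004010, 0x90204404810220200801210000080800004040000002000000120008009000400400000020000001000000080000044010,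 0x80000004000000200000010000000800000040000002000000100000008000000400000020000001000000080000004000, 0xaa0000040000002200000108c0000a00000055000002000000110000008000000500000020000001000000880000084000, 0x8a00a004000000220008010800230800080045005002000000110004008000000400040020000001000000080200004020, 0xa200a0040000002000080100c0230a00080051005002000000100004008000000500040020000001000000880200084020, 0x80000004000000200000010000000800000040000002000000100000008000000400000020000001000000080000004000, 0x80000007400000240000014000000904000040000002e0000010000000a000000600000020000001000001080000004000, 0x80000005400c0024001001000100090004104000000260030010000000a000800400080020000001000000080400004000, 0x80000006400c00200010014001000804041040000002a00300100000008000800600080020000001000001080400004000, 0x80000004000000200000010000000800000040000002000000100000008000000400000020000001000000080000004000, 0xc0000004000000200000018000000800000060800002000000180000008000000400000030000001000000080000204000, 0x80010004000000200000010002000800000060008202000000100020008000000400000020004001000000080000004080, 0xc0010004000000200000018002000800000040808202000000180020008000000400000030004001000000080000204080,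 0x80000004000000200000010000000800000040000002000000100000008000000400000020000001000000080000004000, 0x8000000c000000200000010000001800000040000006080000100000018000000400000020000003000000080000404000, 0x80000004002000200000010000000800400040000006001020100000008004000400000020000001000800080000004100, 0x8000000c002000200000010000001800400040000002081020100000018004000400000020000003000800080000404100, 0x80000004000000200000010000000800000040000002000000100000008000000400000020000001000000080000004000, 0x800000040000006000000500000008000007400000020000009040000280000024000002e0000001000008080000004000, 0x800000040000002001000500100008000006400c00020000009002010080080024008002a0030001000000082000004000, 0x800000040000006001000100100008000005400c0002000000104201028008000400800260030001000008082000004000, 0x80000004000000200000010000000800000040000002000000100000008000000400000020000001000000080000004000, 0x80000004000000a000000100000088000000400000aa000000500000108c00004400000020000055000010080001004000, 0x800000040000002002000100000088020000400000a200a000100100108040304401000020000051005000084000004400, 0x80000004000000a0020001000000080200004000008a00a000500100008c40300401000020000045005010084001004400,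 0x80000004000000200000010000000800000040000002000000100000008000000400000020000001000000080000004000, 0x80000004000000200000090000004800000040000002000008100000408000020480009120000489000000080002004000, 0x80000004000000200000010020000801000040000002000008102000408100020408029020440481022000080000004800, 0x80000004000000200000090020004801000040000002000000102000008100000488028120440409022000080002004800, 0x80000004000000200000010000000800000040000002000000100000008000000400000020000001000000080000004000, 0x8000000400000020000001000000080000084000000200000210000000800000840000402c000021000040080004004000, 0x80000004000000200000010000000800000040200002000000100800008000000402004021003001008000090000005000, 0x8000000400000020000001000000080000084020000200000210080000800000840200002d003021008040090004005000, 0x80000004000000200000010000000800000040000002000000100000008000000400000020000001000000080000004000, 0x80000004000000200000010000000800000040000042000000100000208000010400000420000801400080080000004000, 0x800000040000002000000100000008000000400000020100001000000080800004040000201008012001000a0000004000, 0x800000040000002000000100000008000000400000420100001000002080800104040004201000016001800a0000004000]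

/-- the code of the root element `x_r(t)` -/
def xcode (r t : ℕ) : ℕ := xcodes.getD (Nat.add (Nat.mul 4 r) t) oneCodeP

/-- entry of a root element of the Chevalley group -/
def xEnt (r : Fin 12) (t : F4) (i j : I14) : F4 := Cfsg.Lie.chevG2.xMat F4 r t i j

theorem xmat_ok : ∀ (r : Fin 12) (t : F4) (i j : I14),
    xEnt r t i j = entP (decPM (xcode r.val (e2 t))) i j := by
  decide +kernel

/-- lookup in a chunked list of codes (chunks of 64) -/
def getC (L : List (List ℕ)) (k : ℕ) : ℕ :=
  (L.getD (Nat.div k 64) []).getD (Nat.mod k 64) oneCodeP

/-- the `k`-th matrix of a chunked list of codes -/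
def matAtP (L : List (List ℕ)) (k : ℕ) : PM := decPM (getC L k)

/-- check of a straight line program: entries `k`, `k + 1`, ... are products of earlier entries -/
def slpChkP (L : List (List ℕ)) : ℕ → List (ℕ × ℕ) → Bool
  | _, [] => true
  | k, i :: r =>
    (Nat.blt i.1 k && (Nat.blt i.2 k &&
      decide (matAtP L k = mulP (matAtP L i.1) (matAtP L i.2)))) && slpChkP L (k + 1) r

theorem slpChkP_sound (P : PM → Prop) (hmul : ∀ A B, P A → P B → P (mulP A B))
    (L : List (List ℕ)) :
    ∀ (ins : List (ℕ × ℕ)) (k : ℕ), slpChkP L k ins = true → (∀ j, j < k → P (matAtP L j)) →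
      ∀ j, j < k + ins.length → P (matAtP L j) := by
  intro ins
  induction ins with
  | nil =>
    intro k _ h j hj
    exact h j (by simpa using hj)
  | cons i r ih =>
    intro k hc h j hj
    unfold slpChkP at hc
    rw [Bool.and_eq_true, Bool.and_eq_true, Bool.and_eq_true] at hc
    obtain ⟨⟨h1, h2, h3⟩, h4⟩ := hc
    have h1' : i.1 < k := by simpa [Nat.blt_eq] using h1
    have h2' : i.2 < k := by simpa [Nat.blt_eq] using h2
    have h3' : matAtP L k = mulP (matAtP L i.1) (matAtP L i.2) := of_decide_eq_true h3
    refine ih (k + 1) h4 ?_ j (by rw [List.length_cons] at hj; omega)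
    intro j' hj'
    rcases Nat.lt_succ_iff_lt_or_eq.mp hj' with hlt | rfl
    · exact h j' hlt
    · rw [h3']
      exact hmul _ _ (h _ h1') (h _ h2')

/-- numeric code of a packed vector -/
def encP (a : PV) : ℕ := Nat.add (Nat.mul a.1 16384) a.2

theorem decPV_bnd (c : ℕ) : (decPV c).1 < 2 ^ 14 ∧ (decPV c).2 < 2 ^ 14 := by
  have h1 : (decPV c).1 ≤ 16383 := Nat.and_le_right
  have h2 : (decPV c).2 ≤ 16383 := Nat.and_le_right
  constructor
  · have : (2 : ℕ) ^ 14 = 16384 := by norm_num
    omega
  · have : (2 : ℕ) ^ 14 = 16384 := by norm_num
    omega

/-- lookup in a chunked list of vector codes (chunks of 64) -/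
def getV (L : List (List ℕ)) (k : ℕ) : ℕ :=
  (L.getD (Nat.div k 64) []).getD (Nat.mod k 64) 0

/-- the `k`-th vector of a chunked list of codes -/
def vecAt (V : List (List ℕ)) (k : ℕ) : PV := decPV (getV V k)

/-- check of an orbit tree: vector `k`, `k + 1`, ... is the image of an earlier vector under an
allowed root element -/
def treeChk (mask : ℕ) (V : List (List ℕ)) : ℕ → List (ℕ × ℕ) → Bool
  | _, [] => true
  | k, i :: r =>
    (Nat.testBit mask i.2 && (Nat.blt i.1 k &&
      decide (vecAt V k = mvP (decPM (xcodes.getD i.2 oneCodeP)) (vecAt V i.1)))) &&
        treeChk mask V (k + 1) r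

/-- the listed vectors have strictly increasing codes, and their indices are below `n` -/
def sortChk (V : List (List ℕ)) (n : ℕ) (idx : List ℕ) : Bool :=
  idx.all (fun k => Nat.blt k n) &&
    match idx.map (fun k => encP (vecAt V k)) with
    | [] => true
    | x :: r => incB x r

/-- the allowed root elements fix the given vectors -/
def maskChk (mask : ℕ) (fixed : List PV) : Bool :=
  Nat.blt mask 281474976710656 && (List.range 48).all (fun g => !(Nat.testBit mask g) ||
    fixed.all (fun f => decide (mvP (decPM (xcodes.getD g oneCodeP)) f = f)))

theorem maskChk_fix (mask : ℕ) (fixed : List PV) (h : maskChk mask fixed = true) (g : ℕ)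
    (hg : Nat.testBit mask g = true) :
    g < 48 ∧ ∀ f ∈ fixed, mvP (decPM (xcodes.getD g oneCodeP)) f = f := by
  unfold maskChk at h
  rw [Bool.and_eq_true] at h
  have hm : mask < 2 ^ 48 := by
    have : mask < 281474976710656 := by simpa [Nat.blt_eq] using h.1
    have e : (2 : ℕ) ^ 48 = 281474976710656 := by norm_num
    omega
  have hlt : g < 48 := by
    by_contra hcon
    have h48 : 2 ^ 48 ≤ 2 ^ g := Nat.pow_le_pow_right (by norm_num) (by omega)
    rw [Nat.testBit_lt_two_pow (lt_of_lt_of_le hm h48)] at hg
    exact Bool.false_ne_true hg
  refine ⟨hlt, ?_⟩
  have h1 := List.all_eq_true.mp h.2 g (List.mem_range.mpr hlt)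
  rw [hg] at h1
  simp only [Bool.not_true, Bool.false_or] at h1
  intro f hf
  exact of_decide_eq_true (List.all_eq_true.mp h1 f hf)

section Act

variable {S : Type*} [Group S] (φ : S →* Matrix I14 I14 F4)

/-- the action on vectors -/
def actVP (s : S) (x : I14 → F4) : I14 → F4 := Matrix.mulVec (φ s) x

theorem actVP_one (x : I14 → F4) : actVP φ 1 x = x := by
  unfold actVP
  rw [map_one, Matrix.one_mulVec]

theorem actVP_mul (s t : S) (x : I14 → F4) : actVP φ (s * t) x = actVP φ s (actVP φ t x) := by
  unfold actVP
  rw [map_mul, Matrix.mulVec_mulVec]

/-- the stabiliser of a vector -/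
def fixVP (b : PV) : Subgroup S := fixer (actVP φ) (actVP_one φ) (actVP_mul φ) (toVecP b)

theorem mem_fixVP_of (b : PV) (s : S) (A : PM) (hs : φ s = toMatP A) (h : mvP A b = b) :
    s ∈ fixVP φ b := by
  show Matrix.mulVec (φ s) (toVecP b) = toVecP b
  rw [hs, ← toVecP_mv, h]

/-- soundness of the orbit tree check -/
theorem treeChk_sound (K : Subgroup S) (mask : ℕ) (V : List (List ℕ))
    (hgen : ∀ g, Nat.testBit mask g = true →
      ∃ s ∈ K, φ s = toMatP (decPM (xcodes.getD g oneCodeP))) :
    ∀ (ins : List (ℕ × ℕ)) (k : ℕ), treeChk mask V k ins = true →
      (∀ j, j < k → ∃ s ∈ K, Matrix.mulVec (φ s) (toVecP (vecAt V 0)) = toVecP (vecAt V j)) →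
      ∀ j, j < k + ins.length →
        ∃ s ∈ K, Matrix.mulVec (φ s) (toVecP (vecAt V 0)) = toVecP (vecAt V j) := by
  intro ins
  induction ins with
  | nil =>
    intro k _ h j hj
    exact h j (by simpa using hj)
  | cons i r ih =>
    intro k hc h j hj
    unfold treeChk at hc
    rw [Bool.and_eq_true, Bool.and_eq_true, Bool.and_eq_true] at hc
    obtain ⟨⟨h1, h2, h3⟩, h4⟩ := hc
    have h2' : i.1 < k := by simpa [Nat.blt_eq] using h2
    have h3' : vecAt V k = mvP (decPM (xcodes.getD i.2 oneCodeP)) (vecAt V i.1) :=
      of_decide_eq_true h3
    refine ih (k + 1) h4 ?_ j (by rw [List.length_cons] at hj; omega)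
    intro j' hj'
    rcases Nat.lt_succ_iff_lt_or_eq.mp hj' with hlt | rfl
    · exact h j' hlt
    · obtain ⟨s0, hs0, e0⟩ := h _ h2'
      obtain ⟨s1, hs1, e1⟩ := hgen _ h1
      refine ⟨s1 * s0, K.mul_mem hs1 hs0, ?_⟩
      rw [map_mul, ← Matrix.mulVec_mulVec, e0, e1, ← toVecP_mv, ← h3']

/-- a checked level bounds the order of a subgroup by that of a stabiliser -/
theorem lvl_boundT [Finite S] (K : Subgroup S) (V : List (List ℕ)) (n : ℕ) (idx : List ℕ)
    (horb : ∀ j, j < n →
      ∃ s ∈ K, Matrix.mulVec (φ s) (toVecP (vecAt V 0)) = toVecP (vecAt V j))
    (hs : sortChk V n idx = true) :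
    idx.length * Nat.card ↥(K ⊓ fixVP φ (vecAt V 0)) ≤ Nat.card K := by
  classical
  unfold sortChk at hs
  rw [Bool.and_eq_true] at hs
  have hlt : ∀ k ∈ idx, k < n := fun k hk => by
    have := List.all_eq_true.mp hs.1 k hk
    simpa [Nat.blt_eq] using this
  have hnd : (idx.map (fun k => vecAt V k)).Nodup := by
    have h2 := hs.2
    have hn : (idx.map (fun k => encP (vecAt V k))).Nodup := by
      generalize idx.map (fun k => encP (vecAt V k)) = l at h2
      cases l with
      | nil => exact List.nodup_nil
      | cons x r =>
        have h3 : incB x r = true := h2
        rw [List.nodup_cons]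
        exact ⟨fun hm => lt_irrefl _ (incB_lt r x h3 x hm), incB_nodup r x h3⟩
    have hm : idx.map (fun k => encP (vecAt V k)) = (idx.map (fun k => vecAt V k)).map encP := by
      rw [List.map_map]; rfl
    rw [hm] at hn
    exact List.Nodup.of_map encP hn
  have hnd2 : (idx.map (fun k => toVecP (vecAt V k))).Nodup := by
    have h : ((idx.map (fun k => vecAt V k)).map toVecP).Nodup := by
      refine List.Nodup.map_on ?_ hnd
      intro x hx y hy hxy
      rw [List.mem_map] at hx hy
      obtain ⟨k, hk, rfl⟩ := hx
      obtain ⟨k', hk', rfl⟩ := hy
      have b1 := decPV_bnd (getV V k)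
      have b2 := decPV_bnd (getV V k')
      exact toVecP_injective_on _ _ b1.1 b1.2 b2.1 b2.2 hxy
    rw [List.map_map] at h
    exact h
  have hcard : (idx.map (fun k => toVecP (vecAt V k))).toFinset.card = idx.length := by
    rw [List.toFinset_card_of_nodup hnd2, List.length_map]
  rw [← hcard]
  refine level_step (actVP φ) (actVP_one φ) (actVP_mul φ) K (toVecP (vecAt V 0)) _ ?_
  intro x hx
  rw [List.mem_toFinset, List.mem_map] at hx
  obtain ⟨k, hk, rfl⟩ := hx
  exact horb k (hlt k hk)

end Act

/-- a subgroup of `G × S` inside `H × S` which meets `1 × S` trivially and projects onto `S`,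
where `|H| ≤ |S|`, is the graph of an isomorphism from `H` onto `S` -/
theorem graph_iso_full {G S : Type*} [Group G] [Group S] [Finite S] (H : Subgroup G) [Finite H]
    (Γ : Subgroup (G × S))
    (ha : ∀ x ∈ Γ, x.1 ∈ H)
    (hb : ∀ x ∈ Γ, x.1 = 1 → x.2 = 1)
    (hc : ∀ s : S, ∃ g : G, (g, s) ∈ Γ)
    (he : Nat.card H ≤ Nat.card S) :
    Nonempty (H ≃* S) := by
  let f : Γ →* H := ((MonoidHom.fst G S).comp Γ.subtype).codRestrict H (fun x => ha x.1 x.2)
  have hf : Function.Injective f := by
    rw [injective_iff_map_eq_one]
    intro x hx
    have hx' : x.1.1 = 1 := congrArg Subtype.val hx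
    have h2 := hb x.1 x.2 hx'
    exact Subtype.ext (Prod.ext hx' h2)
  let p2 : Γ →* S := (MonoidHom.snd G S).comp Γ.subtype
  have hp2 : Function.Surjective p2 := by
    intro s
    obtain ⟨g, hg⟩ := hc s
    exact ⟨⟨(g, s), hg⟩, rfl⟩
  have hfin : Finite Γ := Finite.of_injective f hf
  have h1 : Nat.card Γ ≤ Nat.card H := Nat.card_le_card_of_injective f hf
  have h2 : Nat.card S ≤ Nat.card Γ := Nat.card_le_card_of_surjective p2 hp2
  have hfb : Function.Bijective f :=
    (Nat.bijective_iff_injective_and_card f).mpr ⟨hf, by omega⟩
  have hpb : Function.Bijective p2 :=
    (Nat.bijective_iff_surjective_and_card p2).mpr ⟨hp2, by omega⟩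
  exact ⟨(MulEquiv.ofBijective f hfb).symm.trans (MulEquiv.ofBijective p2 hpb)⟩

end Cfsg.Agent.H94.G2
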