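import Cfsg.Agent.H94.G2.DataDefs

set_option autoImplicit false
set_option linter.all false

namespace Cfsg.Agent.H94.G2

open Cfsg.Agent.H94.HS Cfsg.Agent.H35 Cfsg.Spor

theorem treeS_ok0_1 : treeChk maskS0 vS0 701 treeS0_1 = true := by decide +kernel

theorem treeS_len0_1 : treeS0_1.length = 700 := by decide +kernel

end Cfsg.Agent.H94.G2
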