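import Cfsg.Agent.H94.G2.ChkG0
import Cfsg.Agent.H94.G2.ChkG1
import Cfsg.Agent.H94.G2.ChkG2
import Cfsg.Agent.H94.G2.ChkA
import Cfsg.Agent.H94.G2.ChkB0
import Cfsg.Agent.H94.G2.ChkB1
import Cfsg.Agent.H94.G2.ChkB2
import Cfsg.Agent.H94.G2.ChkB3
import Cfsg.Agent.H94.G2.ChkB4
import Cfsg.Agent.H94.G2.ChkL1
import Cfsg.Agent.H94.G2.ChkT0
import Cfsg.Agent.H94.G2.ChkT1
import Cfsg.Agent.H94.G2.ChkT2
import Cfsg.Agent.H94.G2.ChkT3
import Cfsg.Agent.H94.G2.ChkT4
import Cfsg.Agent.H94.G2.ChkT5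
import Cfsg.Agent.H10.SuzT.Main
import Cfsg.Prelude.Def_ChevG2

/-!
# The subgroup `⟨a, …, f⟩` of the presented Suzuki group is `G₂(4)` (helper94)

The suborbit of length 1365 of the representation on 1782 points is labelled by the long root
points of the adjoint module of the Chevalley group of type `G₂` over the field with four
elements; the generators act on them as matrices of the Chevalley group, which has order at least
`4095 * 1024 * 15 * 4`.
-/

set_option autoImplicit false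

namespace Cfsg.Agent.H94.G2

open Cfsg.Agent.H94.HS Cfsg.Agent.H35 Cfsg.Spor Cfsg.Agent.H10.SuzT

/-- the Chevalley group of type `G₂` over the field with four elements -/
abbrev GS : Type := ↥(Cfsg.Lie.chevG2.group F4)

/-- the matrices of its elements -/
def gPhi : GS →* Matrix I14 I14 F4 :=
  (Units.coeHom (Matrix I14 I14 F4)).comp (Subgroup.subtype (Cfsg.Lie.chevG2.group F4))

theorem gPhi_apply (s : GS) :
    gPhi s = ((s.1 : GL Cfsg.Lie.chevG2.Idx F4) : Matrix Cfsg.Lie.chevG2.Idx Cfsg.Lie.chevG2.Idx F4) := rfl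

theorem gPhi_injective : Function.Injective gPhi := by
  intro a b h
  exact Subtype.ext (Units.ext h)

/-- the vector of a point -/
noncomputable def cvS (p : Fin t1680_pd.N) : I14 → F4 := toVecP (cvcS p.val)

theorem e2_d2 : ∀ m, m < 4 → e2 (d2 m) = m := by
  intro m hm
  interval_cases m <;> rfl

theorem e2_lt (t : F4) : e2 t < 4 := by cases t <;> decide

theorem xmat_eq (r : Fin 12) (t : F4) :
    Cfsg.Lie.chevG2.xMat F4 r t = toMatP (decPM (xcode r.val (e2 t))) := by
  ext i j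
  exact xmat_ok r t i j

theorem xsq (g : ℕ) (hg : g < 48) :
    toMatP (decPM (xcodes.getD g oneCodeP)) * toMatP (decPM (xcodes.getD g oneCodeP)) = 1 := by
  rw [← toMatP_mul, of_decide_eq_true (List.all_eq_true.mp xinv_ok g (List.mem_range.mpr hg)),
    toMatP_one]

theorem xcode_eq (r t : ℕ) : xcode r t = xcodes.getD (4 * r + t) oneCodeP := rfl

theorem xzero_ok : (List.range 12).all (fun r =>
    decide (decPM (xcodes.getD (Nat.mul 4 r) oneCodeP) = oneP)) = true := by decide +kernel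

/-- the root elements are elements of the Chevalley group -/
theorem root_mem (g : ℕ) (hg : g < 48) :
    ∃ s : GS, gPhi s = toMatP (decPM (xcodes.getD g oneCodeP)) := by
  have hr : g / 4 < 12 := by omega
  have ht : g % 4 < 4 := Nat.mod_lt _ (by norm_num)
  have hx : Cfsg.Lie.chevG2.xMat F4 (⟨g / 4, hr⟩ : Fin 12) (d2 (g % 4)) =
      toMatP (decPM (xcodes.getD g oneCodeP)) := by
    rw [xmat_eq, xcode_eq, e2_d2 _ ht, Nat.div_add_mod]
  have hsq := xsq g hg
  rw [← hx] at hsq
  let u : GL I14 F4 := ⟨Cfsg.Lie.chevG2.xMat F4 (⟨g / 4, hr⟩ : Fin 12) (d2 (g % 4)),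
    Cfsg.Lie.chevG2.xMat F4 (⟨g / 4, hr⟩ : Fin 12) (d2 (g % 4)), hsq, hsq⟩
  have hu : u ∈ Cfsg.Lie.chevG2.group F4 :=
    Subgroup.subset_closure ⟨(⟨g / 4, hr⟩ : Fin 12), d2 (g % 4), rfl⟩
  exact ⟨⟨u, hu⟩, hx⟩

/-- the elements of the Chevalley group have determinant one -/
theorem det_gPhi (s : GS) : (gPhi s).det = 1 := by
  have key : ∀ g : GL Cfsg.Lie.chevG2.Idx F4, g ∈ Cfsg.Lie.chevG2.group F4 →
      g.val.det = 1 := by
    intro g hg
    refine Subgroup.closure_induction
      (p := fun (g : GL Cfsg.Lie.chevG2.Idx F4) _ => g.val.det = 1)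
      ?_ ?_ ?_ ?_ hg
    · rintro x ⟨r, t, e⟩
      have e' : x.val = toMatP (decPM (xcode r.val (e2 t))) :=
        e.trans (xmat_eq r t)
      have hlt : 4 * r.val + e2 t < 48 := by
        have h1 := r.isLt
        have h1' : r.val < 12 := h1
        have h2 := e2_lt t
        omega
      have hsq := xsq _ hlt
      have hd := congrArg Matrix.det hsq
      rw [Matrix.det_mul, Matrix.det_one] at hd
      have h1 : (toMatP (decPM (xcodes.getD (4 * r.val + e2 t) oneCodeP))).det = 1 :=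
        F4.sq_eq_one _ hd
      exact (congrArg Matrix.det e').trans h1
    · simp
    · intro x y _ _ hx hy
      rw [Units.val_mul, Matrix.det_mul, hx, hy, mul_one]
    · intro x _ hx
      have h1 : (x⁻¹).val * x.val = 1 := by
        rw [← Units.val_mul, inv_mul_cancel, Units.val_one]
      have hd := congrArg Matrix.det h1
      rw [Matrix.det_mul, Matrix.det_one, hx, mul_one] at hd
      exact hd
  exact key s.1 s.2

/-- the matrices of the first program are matrices of the Chevalley group -/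
theorem slp1_mem (j : ℕ) (hj : j < 63) : ∃ s : GS, gPhi s = toMatP (matAtP slp1Codes j) := by
  have h := slpChkP_sound (fun A => ∃ s : GS, gPhi s = toMatP A) ?_ slp1Codes slp1Ins 48 slp1_ok ?_
  · rw [ins1_len] at h
    exact h j hj
  · rintro A B ⟨s, hs⟩ ⟨t, ht⟩
    exact ⟨s * t, by rw [map_mul, hs, ht, toMatP_mul]⟩
  · intro j hj
    have e : matAtP slp1Codes j = decPM (xcodes.getD j oneCodeP) :=
      of_decide_eq_true (List.all_eq_true.mp base1_ok j (List.mem_range.mpr hj))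
    rw [e]
    exact root_mem j hj

theorem card_I14 : Fintype.card I14 = 14 := by
  rw [Fintype.card_sum, Fintype.card_fin, Fintype.card_fin]

theorem pow14 : ∀ l : F4, l ^ 14 = 1 → l = 1 := by decide

/-- the order of the Chevalley group is at least that of `G₂(4)` -/
theorem card_GS_ge : 251596800 ≤ Nat.card GS := by
  have hfin : Finite GS := inferInstance
  let K0 : Subgroup GS := ⊤
  let K1 : Subgroup GS := K0 ⊓ fixVP gPhi (0, 8192)
  let K2 : Subgroup GS := K1 ⊓ fixVP gPhi (0, 4)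
  let K3 : Subgroup GS := K2 ⊓ fixVP gPhi (0, 512)
  let K4 : Subgroup GS := K3 ⊓ fixVP gPhi (0, 64)
  have hroot : ∀ (mask : ℕ) (fixed : List PV), maskChk mask fixed = true → ∀ g,
      Nat.testBit mask g = true → ∃ s : GS, gPhi s = toMatP (decPM (xcodes.getD g oneCodeP)) ∧
        ∀ f ∈ fixed, s ∈ fixVP gPhi f := by
    intro mask fixed hm g hg
    obtain ⟨hlt, hfix⟩ := maskChk_fix mask fixed hm g hg
    obtain ⟨s, hs⟩ := root_mem g hlt
    exact ⟨s, hs, fun f hf => mem_fixVP_of gPhi f s _ hs (hfix f hf)⟩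
  have hgen0 : ∀ g, Nat.testBit maskS0 g = true →
      ∃ s ∈ K0, gPhi s = toMatP (decPM (xcodes.getD g oneCodeP)) := by
    intro g hg
    obtain ⟨s, hs, -⟩ := hroot _ _ maskS_ok0 g hg
    exact ⟨s, Subgroup.mem_top s, hs⟩
  have hgen1 : ∀ g, Nat.testBit maskS1 g = true →
      ∃ s ∈ K1, gPhi s = toMatP (decPM (xcodes.getD g oneCodeP)) := by
    intro g hg
    obtain ⟨s, hs, hf⟩ := hroot _ _ maskS_ok1 g hg
    exact ⟨s, ⟨Subgroup.mem_top s, hf _ (by simp)⟩, hs⟩
  have hgen2 : ∀ g, Nat.testBit maskS2 g = true →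
      ∃ s ∈ K2, gPhi s = toMatP (decPM (xcodes.getD g oneCodeP)) := by
    intro g hg
    obtain ⟨s, hs, hf⟩ := hroot _ _ maskS_ok2 g hg
    exact ⟨s, ⟨⟨Subgroup.mem_top s, hf _ (by simp)⟩, hf _ (by simp)⟩, hs⟩
  have hgen3 : ∀ g, Nat.testBit maskS3 g = true →
      ∃ s ∈ K3, gPhi s = toMatP (decPM (xcodes.getD g oneCodeP)) := by
    intro g hg
    obtain ⟨s, hs, hf⟩ := hroot _ _ maskS_ok3 g hg
    exact ⟨s, ⟨⟨⟨Subgroup.mem_top s, hf _ (by simp)⟩, hf _ (by simp)⟩, hf _ (by simp)⟩, hs⟩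
  have s0 : permS0.length * Nat.card K1 ≤ Nat.card K0 := by
    have t0_0 : ∀ j, j < 1 → ∃ s ∈ K0, Matrix.mulVec (gPhi s) (toVecP (vecAt vS0 0)) = toVecP (vecAt vS0 j) := by
      intro j hj
      have hj0 : j = 0 := by omega
      subst hj0
      exact ⟨1, Subgroup.one_mem _, by rw [map_one, Matrix.one_mulVec]⟩
    have t0_1 : ∀ j, j < 701 → ∃ s ∈ K0, Matrix.mulVec (gPhi s) (toVecP (vecAt vS0 0)) = toVecP (vecAt vS0 j) := by
      have h := treeChk_sound gPhi K0 maskS0 vS0 hgen0 treeS0_0 1 treeS_ok0_0 t0_0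
      rw [treeS_len0_0] at h
      exact h
    have t0_2 : ∀ j, j < 1401 → ∃ s ∈ K0, Matrix.mulVec (gPhi s) (toVecP (vecAt vS0 0)) = toVecP (vecAt vS0 j) := by
      have h := treeChk_sound gPhi K0 maskS0 vS0 hgen0 treeS0_1 701 treeS_ok0_1 t0_1
      rw [treeS_len0_1] at h
      exact h
    have t0_3 : ∀ j, j < 2101 → ∃ s ∈ K0, Matrix.mulVec (gPhi s) (toVecP (vecAt vS0 0)) = toVecP (vecAt vS0 j) := by
      have h := treeChk_sound gPhi K0 maskS0 vS0 hgen0 treeS0_2 1401 treeS_ok0_2 t0_2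
      rw [treeS_len0_2] at h
      exact h
    have t0_4 : ∀ j, j < 2801 → ∃ s ∈ K0, Matrix.mulVec (gPhi s) (toVecP (vecAt vS0 0)) = toVecP (vecAt vS0 j) := by
      have h := treeChk_sound gPhi K0 maskS0 vS0 hgen0 treeS0_3 2101 treeS_ok0_3 t0_3
      rw [treeS_len0_3] at h
      exact h
    have t0_5 : ∀ j, j < 3501 → ∃ s ∈ K0, Matrix.mulVec (gPhi s) (toVecP (vecAt vS0 0)) = toVecP (vecAt vS0 j) := by
      have h := treeChk_sound gPhi K0 maskS0 vS0 hgen0 treeS0_4 2801 treeS_ok0_4 t0_4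
      rw [treeS_len0_4] at h
      exact h
    have t0_6 : ∀ j, j < 4095 → ∃ s ∈ K0, Matrix.mulVec (gPhi s) (toVecP (vecAt vS0 0)) = toVecP (vecAt vS0 j) := by
      have h := treeChk_sound gPhi K0 maskS0 vS0 hgen0 treeS0_5 3501 treeS_ok0_5 t0_5
      rw [treeS_len0_5] at h
      exact h
    have h := lvl_boundT gPhi K0 vS0 4095 permS0 t0_6 sortS_ok0
    rw [baseS0] at h
    exact h
  have s1 : permS1.length * Nat.card K2 ≤ Nat.card K1 := by
    have t1_0 : ∀ j, j < 1 → ∃ s ∈ K1, Matrix.mulVec (gPhi s) (toVecP (vecAt vS1 0)) = toVecP (vecAt vS1 j) := by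
      intro j hj
      have hj0 : j = 0 := by omega
      subst hj0
      exact ⟨1, Subgroup.one_mem _, by rw [map_one, Matrix.one_mulVec]⟩
    have t1_1 : ∀ j, j < 701 → ∃ s ∈ K1, Matrix.mulVec (gPhi s) (toVecP (vecAt vS1 0)) = toVecP (vecAt vS1 j) := by
      have h := treeChk_sound gPhi K1 maskS1 vS1 hgen1 treeS1_0 1 treeS_ok1_0 t1_0
      rw [treeS_len1_0] at h
      exact h
    have t1_2 : ∀ j, j < 1024 → ∃ s ∈ K1, Matrix.mulVec (gPhi s) (toVecP (vecAt vS1 0)) = toVecP (vecAt vS1 j) := by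
      have h := treeChk_sound gPhi K1 maskS1 vS1 hgen1 treeS1_1 701 treeS_ok1_1 t1_1
      rw [treeS_len1_1] at h
      exact h
    have h := lvl_boundT gPhi K1 vS1 1024 permS1 t1_2 sortS_ok1
    rw [baseS1] at h
    exact h
  have s2 : permS2.length * Nat.card K3 ≤ Nat.card K2 := by
    have t2_0 : ∀ j, j < 1 → ∃ s ∈ K2, Matrix.mulVec (gPhi s) (toVecP (vecAt vS2 0)) = toVecP (vecAt vS2 j) := by
      intro j hj
      have hj0 : j = 0 := by omega
      subst hj0
      exact ⟨1, Subgroup.one_mem _, by rw [map_one, Matrix.one_mulVec]⟩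
    have t2_1 : ∀ j, j < 15 → ∃ s ∈ K2, Matrix.mulVec (gPhi s) (toVecP (vecAt vS2 0)) = toVecP (vecAt vS2 j) := by
      have h := treeChk_sound gPhi K2 maskS2 vS2 hgen2 treeS2_0 1 treeS_ok2_0 t2_0
      rw [treeS_len2_0] at h
      exact h
    have h := lvl_boundT gPhi K2 vS2 15 permS2 t2_1 sortS_ok2
    rw [baseS2] at h
    exact h
  have s3 : permS3.length * Nat.card K4 ≤ Nat.card K3 := by
    have t3_0 : ∀ j, j < 1 → ∃ s ∈ K3, Matrix.mulVec (gPhi s) (toVecP (vecAt vS3 0)) = toVecP (vecAt vS3 j) := by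
      intro j hj
      have hj0 : j = 0 := by omega
      subst hj0
      exact ⟨1, Subgroup.one_mem _, by rw [map_one, Matrix.one_mulVec]⟩
    have t3_1 : ∀ j, j < 4 → ∃ s ∈ K3, Matrix.mulVec (gPhi s) (toVecP (vecAt vS3 0)) = toVecP (vecAt vS3 j) := by
      have h := treeChk_sound gPhi K3 maskS3 vS3 hgen3 treeS3_0 1 treeS_ok3_0 t3_0
      rw [treeS_len3_0] at h
      exact h
    have h := lvl_boundT gPhi K3 vS3 4 permS3 t3_1 sortS_ok3
    rw [baseS3] at h
    exact h
  rw [permS_len0] at s0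
  rw [permS_len1] at s1
  rw [permS_len2] at s2
  rw [permS_len3] at s3
  have hpos : 0 < Nat.card K4 := Nat.card_pos
  have htop : Nat.card K0 = Nat.card GS := Subgroup.card_top
  have e1 : 4 ≤ Nat.card K3 := by nlinarith
  have e2' : 60 ≤ Nat.card K2 := by nlinarith
  have e3 : 61440 ≤ Nat.card K1 := by nlinarith
  have e4 : 251596800 ≤ Nat.card K0 := by nlinarith
  rw [htop] at e4
  exact e4

section Rep

variable (ρ : Suz →* Equiv.Perm (Fin t1680_pd.N))
  (hw : ∀ (w : List Suz.Gen) (p : Fin t1680_pd.N),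
    t1680_pd.walk w p.val = ((ρ (uw suz_gen w))⁻¹ p).val)

include hw

theorem relS_at (w : List Suz.Gen) (s : GS) (h : Rel ρ gPhi cvS (uw suz_gen w) s) (n : ℕ)
    (hn : n < t1680_pd.N) : ∃ l : F4, l ≠ 0 ∧
      Matrix.mulVec (gPhi s) (toVecP (cvcS (t1680_pd.walk w n))) = l • toVecP (cvcS n) := by
  obtain ⟨l, hl, e⟩ := h ⟨n, hn⟩
  refine ⟨l, hl, ?_⟩
  have e1 : cvS ((ρ (uw suz_gen w))⁻¹ ⟨n, hn⟩) = toVecP (cvcS (t1680_pd.walk w n)) := by
    unfold cvS
    rw [← hw]
  rw [e1] at e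
  exact e

theorem genS_rel (w : List Suz.Gen) (M : PM)
    (hk : allR (genOKS w M) 1782 11 0 = true) (s : GS)
    (hs : gPhi s = toMatP M) : Rel ρ gPhi cvS (uw suz_gen w) s := by
  intro p
  have h := allR_all _ _ 11 (by decide) hk p.val p.isLt
  unfold genOKS at h
  simp only [Bool.or_eq_true, decide_eq_true_eq] at h
  have e : cvS ((ρ (uw suz_gen w))⁻¹ p) = toVecP (cvcS (t1680_pd.walk w p.val)) := by
    unfold cvS
    rw [← hw]
  rw [e, hs, ← toVecP_mv]
  rcases h with h | h | h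
  · exact ⟨F4.o, by decide, by rw [h, toVecP_sm]; rfl⟩
  · exact ⟨F4.w, by decide, by rw [h, toVecP_sm]; rfl⟩
  · exact ⟨F4.v, by decide, by rw [h, toVecP_sm]; rfl⟩

/-- only the identity acts as the identity on the points -/
theorem relS_one_unique (s : GS) (h : Rel ρ gPhi cvS 1 s) : s = 1 := by
  have h' : Rel ρ gPhi cvS (uw suz_gen []) s := by rw [uw_nil]; exact h
  have hat : ∀ (n : ℕ), n < t1680_pd.N →
      ∃ l : F4, l ≠ 0 ∧ Matrix.mulVec (gPhi s) (toVecP (cvcS n)) = l • toVecP (cvcS n) := by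
    intro n hn
    obtain ⟨l, hl, e1⟩ := relS_at ρ hw [] s h' n hn
    exact ⟨l, hl, e1⟩
  have hcol : ∀ k : ℕ, ∃ l : F4, k < 14 →
      Matrix.mulVec (gPhi s) (toVecP (colP (decPM uCode) k)) =
        l • toVecP (colP (decPM uCode) k) := by
    intro k
    by_cases hk : k < 14
    · have hc := List.all_eq_true.mp ucol_ok k (List.mem_range.mpr hk)
      rw [Bool.and_eq_true] at hc
      have hc1 : colP (decPM uCode) k = cvcS (bptsS.getD k 0) := of_decide_eq_true hc.1
      have hc2 : bptsS.getD k 0 < 1782 := by simpa [Nat.blt_eq] using hc.2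
      obtain ⟨l, -, e⟩ := hat _ hc2
      exact ⟨l, fun _ => by rw [hc1]; exact e⟩
    · exact ⟨0, fun h => absurd h hk⟩
  choose lam hlam using hcol
  have hU1 : toMatP (decPM uCode) * toMatP (decPM uiCode) = 1 := by
    have hu := u_ok
    rw [Bool.and_eq_true] at hu
    rw [← toMatP_mul, of_decide_eq_true hu.1, toMatP_one]
  have hU2 : toMatP (decPM uiCode) * toMatP (decPM uCode) = 1 := by
    have hu := u_ok
    rw [Bool.and_eq_true] at hu
    rw [← toMatP_mul, of_decide_eq_true hu.2, toMatP_one]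
  have hAU : gPhi s * toMatP (decPM uCode) =
      toMatP (decPM uCode) * Matrix.diagonal (fun j : I14 => lam (num j)) := by
    ext i j
    rw [Matrix.mul_diagonal]
    have h1 := congrFun (hlam (num j) (num_lt j)) i
    rw [Pi.smul_apply, smul_eq_mul] at h1
    rw [mul_comm]
    exact h1
  obtain ⟨mu, hmu, hwv⟩ := hat wptS wpt_lt
  have hc : toVecP (mvP (decPM uiCode) (cvcS wptS)) =
      Matrix.mulVec (toMatP (decPM uiCode)) (toVecP (cvcS wptS)) := toVecP_mv _ _
  have hw1 : toVecP (cvcS wptS) = Matrix.mulVec (toMatP (decPM uCode))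
      (toVecP (mvP (decPM uiCode) (cvcS wptS))) := by
    rw [hc, Matrix.mulVec_mulVec, hU1, Matrix.one_mulVec]
  have hD : Matrix.mulVec (Matrix.diagonal (fun j : I14 => lam (num j)))
      (toVecP (mvP (decPM uiCode) (cvcS wptS))) =
      mu • toVecP (mvP (decPM uiCode) (cvcS wptS)) := by
    have h1 : Matrix.mulVec (toMatP (decPM uiCode)) (Matrix.mulVec (gPhi s) (toVecP (cvcS wptS))) =
        mu • toVecP (mvP (decPM uiCode) (cvcS wptS)) := by
      rw [hwv, Matrix.mulVec_smul, ← hc]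
    rw [← h1]
    conv_rhs => rw [hw1]
    rw [Matrix.mulVec_mulVec, Matrix.mulVec_mulVec, Matrix.mul_assoc, hAU, ← Matrix.mul_assoc, hU2,
      Matrix.one_mul]
  have hlam_eq : ∀ j : I14, lam (num j) = mu := by
    intro j
    have h1 := congrFun hD j
    rw [Matrix.mulVec_diagonal, Pi.smul_apply, smul_eq_mul] at h1
    have hne : toVecP (mvP (decPM uiCode) (cvcS wptS)) j ≠ 0 := by
      have := List.all_eq_true.mp w_ok (num j) (List.mem_range.mpr (num_lt j))
      exact of_decide_eq_true this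
    exact mul_right_cancel₀ hne h1
  have hdiag : Matrix.diagonal (fun j : I14 => lam (num j)) = mu • (1 : Matrix I14 I14 F4) := by
    rw [Matrix.smul_one_eq_diagonal]
    congr 1
    funext j
    exact hlam_eq j
  have hA : gPhi s = mu • (1 : Matrix I14 I14 F4) := by
    have h1 : gPhi s = gPhi s * toMatP (decPM uCode) * toMatP (decPM uiCode) := by
      rw [Matrix.mul_assoc, hU1, Matrix.mul_one]
    rw [h1, hAU, hdiag, Matrix.mul_smul, Matrix.mul_one, Matrix.smul_mul, hU1]
  have hdet := det_gPhi s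
  rw [hA, Matrix.det_smul, Matrix.det_one, mul_one, card_I14] at hdet
  have hmu1 : mu = 1 := pow14 mu hdet
  rw [hmu1, one_smul] at hA
  apply gPhi_injective
  rw [hA, map_one]

/-- the root elements come from the graph -/
theorem root_graph (g : ℕ) (hg : g < 48) :
    ∃ x ∈ graphSub ρ gPhi cvS Hs, gPhi x.2 = toMatP (decPM (xcodes.getD g oneCodeP)) := by
  let P2 : PM → Prop := fun A => ∃ x ∈ graphSub ρ gPhi cvS Hs, gPhi x.2 = toMatP A
  have hmul : ∀ A B, P2 A → P2 B → P2 (mulP A B) := by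
    rintro A B ⟨x, hx, ex⟩ ⟨y, hy, ey⟩
    refine ⟨x * y, Subgroup.mul_mem _ hx hy, ?_⟩
    rw [Prod.snd_mul, map_mul, ex, ey, toMatP_mul]
  have hgen : ∀ (j : ℕ) (hj : j < 6) (w : List Suz.Gen), w ∈ t1680_sw →
      allR (genOKS w (matAtP slp1Codes (gpos1.getD j 0))) 1782 11 0 = true →
      P2 (matAtP slp2Codes j) := by
    intro j hj w hwm hk
    have hlt : gpos1.getD j 0 < 63 := by
      have h1 := List.all_eq_true.mp gpos1_lt (gpos1.getD j 0) (by
        have hlen : gpos1.length = 6 := rfl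
        rw [List.getD_eq_getElem _ _ (by rw [hlen]; exact hj)]
        exact List.getElem_mem _)
      simpa [Nat.blt_eq] using h1
    obtain ⟨s, hs⟩ := slp1_mem _ hlt
    have e : matAtP slp2Codes j = matAtP slp1Codes (gpos1.getD j 0) :=
      of_decide_eq_true (List.all_eq_true.mp base2_ok j (List.mem_range.mpr hj))
    refine ⟨(uw suz_gen w, s), ⟨mem_swGrp suz_gen _ w hwm, ?_⟩, ?_⟩
    · exact genS_rel ρ hw w _ hk s hs
    · rw [e]; exact hs
  have q0 : ∀ j, j < 6 → P2 (matAtP slp2Codes j) := by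
    intro j hj
    interval_cases j
    · exact hgen 0 (by decide) [.a] (by decide) genS_ok0
    · exact hgen 1 (by decide) [.b] (by decide) genS_ok1
    · exact hgen 2 (by decide) [.c] (by decide) genS_ok2
    · exact hgen 3 (by decide) [.d] (by decide) genS_ok3
    · exact hgen 4 (by decide) [.e] (by decide) genS_ok4
    · exact hgen 5 (by decide) [.f] (by decide) genS_ok5
  have q1 : ∀ j, j < 136 → P2 (matAtP slp2Codes j) := by
    have h := slpChkP_sound P2 hmul slp2Codes slp2Ins0 6 slp2_ok0 q0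
    rw [ins2_len0] at h
    exact h
  have q2 : ∀ j, j < 266 → P2 (matAtP slp2Codes j) := by
    have h := slpChkP_sound P2 hmul slp2Codes slp2Ins1 136 slp2_ok1 q1
    rw [ins2_len1] at h
    exact h
  have q3 : ∀ j, j < 396 → P2 (matAtP slp2Codes j) := by
    have h := slpChkP_sound P2 hmul slp2Codes slp2Ins2 266 slp2_ok2 q2
    rw [ins2_len2] at h
    exact h
  have q4 : ∀ j, j < 526 → P2 (matAtP slp2Codes j) := by
    have h := slpChkP_sound P2 hmul slp2Codes slp2Ins3 396 slp2_ok3 q3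
    rw [ins2_len3] at h
    exact h
  have q5 : ∀ j, j < 527 → P2 (matAtP slp2Codes j) := by
    have h := slpChkP_sound P2 hmul slp2Codes slp2Ins4 526 slp2_ok4 q4
    rw [ins2_len4] at h
    exact h
  by_cases h0 : g % 4 = 0
  · refine ⟨1, Subgroup.one_mem _, ?_⟩
    have hr : g / 4 < 12 := by omega
    have e : decPM (xcodes.getD (Nat.mul 4 (g / 4)) oneCodeP) = oneP :=
      of_decide_eq_true (List.all_eq_true.mp xzero_ok (g / 4) (List.mem_range.mpr hr))
    have hg' : Nat.mul 4 (g / 4) = g := by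
      show 4 * (g / 4) = g
      omega
    rw [hg'] at e
    rw [e, toMatP_one]
    rfl
  · have hj : 3 * (g / 4) + (g % 4 - 1) < 36 := by omega
    have hr := List.all_eq_true.mp rpos2_ok _ (List.mem_range.mpr hj)
    rw [Bool.and_eq_true] at hr
    have hr1 : rpos2.getD (3 * (g / 4) + (g % 4 - 1)) 0 < 527 := by simpa [Nat.blt_eq] using hr.1
    have hr2 := of_decide_eq_true hr.2
    have hidx : Nat.add (Nat.mul 4 (Nat.div (3 * (g / 4) + (g % 4 - 1)) 3))
        (Nat.succ (Nat.mod (3 * (g / 4) + (g % 4 - 1)) 3)) = g := by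
      show 4 * ((3 * (g / 4) + (g % 4 - 1)) / 3) + ((3 * (g / 4) + (g % 4 - 1)) % 3 + 1) = g
      omega
    rw [hidx] at hr2
    rw [← hr2]
    exact q5 _ hr1

/-- the subgroup `⟨a, …, f⟩` is isomorphic to the Chevalley group -/
theorem suz_g2 (hcard : Nat.card Hs = 251596800) : Nonempty (Hs ≃* GS) := by
  have hfinS : Finite GS := inferInstance
  have hfinH : Finite Hs := Nat.finite_of_card_ne_zero (by rw [hcard]; decide)
  refine graph_iso_full Hs (graphSub ρ gPhi cvS Hs) (fun x hx => hx.1) ?_ ?_ ?_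
  · intro x hx h1
    have hr : Rel ρ gPhi cvS 1 x.2 := by
      have := hx.2
      rw [h1] at this
      exact this
    exact relS_one_unique ρ hw x.2 hr
  · let R : Subgroup GS := (graphSub ρ gPhi cvS Hs).map (MonoidHom.snd Suz GS)
    have hle : Cfsg.Lie.chevG2.group F4 ≤ R.map (Subgroup.subtype _) := by
      show Subgroup.closure _ ≤ _
      rw [Subgroup.closure_le]
      rintro x ⟨r, t, e⟩
      have hlt : 4 * r.val + e2 t < 48 := by
        have h1 := r.isLt
        have h1' : r.val < 12 := h1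
        have h2 := e2_lt t
        omega
      obtain ⟨y, hy, ey⟩ := root_graph ρ hw _ hlt
      refine ⟨y.2, ⟨y, hy, rfl⟩, ?_⟩
      apply Units.ext
      exact ey.trans ((xmat_eq r t).symm.trans e.symm)
    intro s
    obtain ⟨s', hs', e⟩ := hle s.2
    have es : s' = s := Subtype.ext e
    rw [es] at hs'
    obtain ⟨y, hy, ey⟩ := hs'
    refine ⟨y.1, ?_⟩
    have e' : y.2 = s := ey
    rw [← e']
    exact hy
  · rw [hcard]
    exact card_GS_ge

end Rep

end Cfsg.Agent.H94.G2
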