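import Cfsg.Agent.H94.HS.Chk

/-!
# `14 × 14` matrices over the field with four elements, packed in bit masks (helper94)

A vector is a pair `(H, L)` of natural numbers: its coordinate `k` is `H_k ω + L_k` (bits).
A matrix is the list of its 14 columns.  Index type `Fin 2 ⊕ Fin 12` (that of the Chevalley
group of type `G₂`).
-/

set_option autoImplicit false

namespace Cfsg.Agent.H94.G2

open Cfsg.Agent.H94.HS

/-- the index type -/
abbrev I14 : Type := Fin 2 ⊕ Fin 12

/-- a packed vector -/
abbrev PV : Type := ℕ × ℕ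

/-- a packed matrix: the list of its columns -/
abbrev PM : Type := List PV

/-- the field element of two bits -/
def bF : Bool → Bool → F4
  | false, false => F4.z
  | false, true => F4.o
  | true, false => F4.w
  | true, true => F4.v

/-- the number of an index -/
def num : I14 → ℕ
  | Sum.inl i => i.val
  | Sum.inr j => 2 + j.val

/-- the index of a number -/
def idx : ℕ → I14
  | 0 => Sum.inl 0
  | 1 => Sum.inl 1
  | 2 => Sum.inr 0
  | 3 => Sum.inr 1
  | 4 => Sum.inr 2
  | 5 => Sum.inr 3
  | 6 => Sum.inr 4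
  | 7 => Sum.inr 5
  | 8 => Sum.inr 6
  | 9 => Sum.inr 7
  | 10 => Sum.inr 8
  | 11 => Sum.inr 9
  | 12 => Sum.inr 10
  | 13 => Sum.inr 11
  | _ => Sum.inl 0

theorem num_idx0 : num (idx 0) = 0 := rfl
theorem num_idx1 : num (idx 1) = 1 := rfl
theorem num_idx2 : num (idx 2) = 2 := rfl
theorem num_idx3 : num (idx 3) = 3 := rfl
theorem num_idx4 : num (idx 4) = 4 := rfl
theorem num_idx5 : num (idx 5) = 5 := rfl
theorem num_idx6 : num (idx 6) = 6 := rfl
theorem num_idx7 : num (idx 7) = 7 := rfl
theorem num_idx8 : num (idx 8) = 8 := rfl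
theorem num_idx9 : num (idx 9) = 9 := rfl
theorem num_idx10 : num (idx 10) = 10 := rfl
theorem num_idx11 : num (idx 11) = 11 := rfl
theorem num_idx12 : num (idx 12) = 12 := rfl
theorem num_idx13 : num (idx 13) = 13 := rfl

theorem num_lt (i : I14) : num i < 14 := by
  rcases i with i | i
  · have := i.isLt
    show i.val < 14
    omega
  · have := i.isLt
    show 2 + i.val < 14
    omega

/-- coordinate of a packed vector -/
def crd (a : PV) (k : ℕ) : F4 := bF (a.1.testBit k) (a.2.testBit k)

/-- the function of a packed vector -/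
def toVecP (a : PV) : I14 → F4 := fun i => crd a (num i)

/-- sum -/
def addP (a b : PV) : PV := (a.1 ^^^ b.1, a.2 ^^^ b.2)

/-- scalar multiple -/
def smP (l : F4) (a : PV) : PV :=
  match l with
  | F4.z => (0, 0)
  | F4.o => a
  | F4.w => (a.1 ^^^ a.2, a.1)
  | F4.v => (a.2, a.1 ^^^ a.2)

theorem crd_add (a b : PV) (k : ℕ) : crd (addP a b) k = crd a k + crd b k := by
  unfold crd addP
  simp only [Nat.testBit_xor]
  cases a.1.testBit k <;> cases a.2.testBit k <;> cases b.1.testBit k <;>
    cases b.2.testBit k <;> rfl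

theorem crd_sm (l : F4) (a : PV) (k : ℕ) : crd (smP l a) k = l * crd a k := by
  cases l <;> simp only [crd, smP, Nat.testBit_xor, Nat.zero_testBit] <;>
    cases a.1.testBit k <;> cases a.2.testBit k <;> rfl

theorem toVecP_add (a b : PV) : toVecP (addP a b) = toVecP a + toVecP b := by
  funext i
  exact crd_add a b (num i)

theorem toVecP_sm (l : F4) (a : PV) : toVecP (smP l a) = l • toVecP a := by
  funext i
  exact crd_sm l a (num i)

/-- column of a packed matrix -/
def colP (M : PM) (k : ℕ) : PV := M.getD k (0, 0)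

/-- matrix times vector -/
def mvP (M : PM) (a : PV) : PV :=
  addP (smP (crd a 0) (colP M 0)) (addP (smP (crd a 1) (colP M 1)) (addP (smP (crd a 2) (colP M 2)) (addP (smP (crd a 3) (colP M 3)) (addP (smP (crd a 4) (colP M 4)) (addP (smP (crd a 5) (colP M 5)) (addP (smP (crd a 6) (colP M 6)) (addP (smP (crd a 7) (colP M 7)) (addP (smP (crd a 8) (colP M 8)) (addP (smP (crd a 9) (colP M 9)) (addP (smP (crd a 10) (colP M 10)) (addP (smP (crd a 11) (colP M 11)) (addP (smP (crd a 12) (colP M 12)) (smP (crd a 13) (colP M 13))))))))))))))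

/-- product -/
def mulP (A B : PM) : PM := B.map (mvP A)

/-- the matrix of a packed matrix -/
def toMatP (M : PM) : Matrix I14 I14 F4 := Matrix.of fun i k => crd (colP M (num k)) (num i)

theorem toMatP_apply (M : PM) (i k : I14) : toMatP M i k = crd (colP M (num k)) (num i) := rfl

theorem sum_I14 {R : Type*} [AddCommMonoid R] (f : I14 → R) :
    ∑ j, f j = f (idx 0) + f (idx 1) + f (idx 2) + f (idx 3) + f (idx 4) + f (idx 5) + f (idx 6) + f (idx 7) + f (idx 8) + f (idx 9) + f (idx 10) + f (idx 11) + f (idx 12) + f (idx 13) := by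
  rw [Fintype.sum_sum_type, Fin.sum_univ_two]
  simp only [Fin.sum_univ_succ, Fin.sum_univ_zero, add_zero, add_assoc]
  rfl

theorem toVecP_mv (M : PM) (a : PV) : toVecP (mvP M a) = Matrix.mulVec (toMatP M) (toVecP a) := by
  funext i
  show crd (mvP M a) (num i) = ∑ j, toMatP M i j * toVecP a j
  rw [sum_I14]
  simp only [mvP, crd_add, crd_sm, toMatP_apply, toVecP, num_idx0, num_idx1, num_idx2, num_idx3, num_idx4, num_idx5, num_idx6, num_idx7, num_idx8, num_idx9, num_idx10, num_idx11, num_idx12, num_idx13]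
  ring

theorem mvP_zero (M : PM) : mvP M (0, 0) = (0, 0) := by
  have hc : ∀ k, crd ((0, 0) : PV) k = F4.z := fun k => by
    unfold crd
    rw [Nat.zero_testBit]
    rfl
  have hs : ∀ c : PV, smP F4.z c = (0, 0) := fun c => rfl
  have ha : addP ((0, 0) : PV) (0, 0) = (0, 0) := rfl
  unfold mvP
  simp only [hc, hs, ha]

theorem colP_mul (A B : PM) (k : ℕ) : colP (mulP A B) k = mvP A (colP B k) := by
  unfold colP mulP
  have h := List.getD_map (l := B) (d := ((0, 0) : PV)) (n := k) (mvP A)
  rw [mvP_zero] at h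
  exact h

theorem toMatP_mul (A B : PM) : toMatP (mulP A B) = toMatP A * toMatP B := by
  ext i k
  rw [toMatP_apply, colP_mul]
  exact congrFun (toVecP_mv A (colP B (num k))) i

theorem toVecP_injective_on (a b : PV) (ha1 : a.1 < 2 ^ 14) (ha2 : a.2 < 2 ^ 14)
    (hb1 : b.1 < 2 ^ 14) (hb2 : b.2 < 2 ^ 14) (h : toVecP a = toVecP b) : a = b := by
  have key : ∀ k, k < 14 → a.1.testBit k = b.1.testBit k ∧ a.2.testBit k = b.2.testBit k := by
    intro k hk
    have hk' : num (idx k) = k := by
      interval_cases k <;> rfl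
    have h1 := congrFun h (idx k)
    simp only [toVecP, hk', crd] at h1
    revert h1
    cases a.1.testBit k <;> cases a.2.testBit k <;> cases b.1.testBit k <;>
      cases b.2.testBit k <;> simp [bF]
  have hb : ∀ x y : ℕ, x < 2 ^ 14 → y < 2 ^ 14 → (∀ k, k < 14 → x.testBit k = y.testBit k) →
      x = y := by
    intro x y hx hy hxy
    apply Nat.eq_of_testBit_eq
    intro k
    by_cases hk : k < 14
    · exact hxy k hk
    · have h14 : 2 ^ 14 ≤ 2 ^ k := Nat.pow_le_pow_right (by norm_num) (by omega)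
      rw [Nat.testBit_lt_two_pow (lt_of_lt_of_le hx h14),
        Nat.testBit_lt_two_pow (lt_of_lt_of_le hy h14)]
  exact Prod.ext (hb _ _ ha1 hb1 (fun k hk => (key k hk).1))
    (hb _ _ ha2 hb2 (fun k hk => (key k hk).2))

end Cfsg.Agent.H94.G2
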